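import Cfsg.Agent.Comp.He.Out
import Cfsg.Agent.Comp.He.Base
import Cfsg.Agent.Comp.S44.Main
import Cfsg.Agent.Comp.SubKit

set_option autoImplicit false
set_option maxRecDepth 100000

namespace Cfsg.Agent.Comp.He
open Cfsg.Agent.Comp

def twS44 : List (List Nat) :=
  [[3, 2, 10, 12, 3, 2, 10, 12, 3],
   [3, 12, 10, 2, 3, 12, 10, 2, 3],
   [10, 2, 10],
   [11, 2, 11],
   [0, 11, 10, 12, 11, 12, 10],
   [5, 10, 4, 3, 2, 3, 4, 10, 2]]

theorem eS44 : ∀ e ∈ ((S44.R.map (subst twS44)).map fun w => (w, ([] : List ℕ))), ev (liftS phi (sig T)) e.1 = ev (liftS phi (sig T)) e.2 :=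
  rep1.eqB inj base (by decide +kernel)

/-- the images of the generators -/
noncomputable def tS44 (x : ℕ) : Cfsg.Spor.He := ev (liftS phi (sig T)) (twS44.getD x [])

theorem isoS44 : Nonempty (S44.G ≃* gen tS44 6) :=
  have := S44.simple
  ⟨(S44.pres.equiv_of_simple (by decide +kernel) tS44 (Sat.subst (sat_of_eqs eS44)) (x := 0) (by norm_num)
    (rep1.ne (show neqB 13 2058 T (ivl 0 1029) (twS44.getD 0 []) [] = true by decide +kernel))).choose⟩

theorem halfS44 : ∃ K : Subgroup (genW s W0), K.Normal ∧ K.index = 2 ∧ Nonempty (K ≃* S44.G) := by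
  obtain ⟨e⟩ := isoS44
  exact exists_half (rep1.gen_le_stab (tw := twS44) stab.2 (by decide +kernel)) e S44.card.2.1
    (card_eq_of_index card.2.1 stab.1 (by norm_num)) (by norm_num)

end Cfsg.Agent.Comp.He
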